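import Mathlib
import Cfsg.Agent.Lib.Helper56.TC

set_option autoImplicit false
set_option maxRecDepth 1000000

namespace Cfsg.Agent.Lib.Helper56.MYU6

open Cfsg.Agent.Lib.Helper56.TC Cfsg.Agent.Lib.Helper56.TC.Tabs

noncomputable def nA0 : List ℕ := [
0x31ab9553c8e8e393f159b884bc080d580ea9264d8f23458fe1c750602028081eb039c1fad2f56276aeb9408080206126ed60ac2b51f998f2c4020180814f17832b4ac1c9355c728c080402045f4da1a4c81175847388202008080decf4cc724a351398ab0a808000202902cc1145b492a2412e1cd6188080704117410b30c5608294513c30ac00]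

noncomputable def fA0 : List ℕ := [
0xfffff6c3c6db6bed3c6db66b22d5247646de36d46da52e22d2489b5422492009c400000000]

end Cfsg.Agent.Lib.Helper56.MYU6
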