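import Mathlib
import Cfsg.Agent.Lib.Helper56.TC
import Cfsg.Agent.Lib.Helper56.TCFast
import Cfsg.Agent.Lib.Helper56.MYU6.DA0
set_option autoImplicit false
set_option maxRecDepth 1000000

namespace Cfsg.Agent.Lib.Helper56.MYU6

open Cfsg.Agent.Lib.Helper56.TC Cfsg.Agent.Lib.Helper56.TC.Tabs

noncomputable def nA : List (List ℕ) := [nA0]

noncomputable def fA : List (List ℕ) := [fA0]

/-- The certificate data. -/
noncomputable def T : Tabs where
  K := 7
  N := 8
  N' := 8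
  INF := 43
  fuel := 1
  inv := fun l => l
  tg := slotFld2 nA 121 135 43556142965880123323311949751266331066367 7 17 16 7 (fun _ => 0)
  rk := slotFld2 nA 121 135 43556142965880123323311949751266331066367 7 17 19 63
    (fun x => Nat.rec (motive := fun _ => ℕ) 0 (fun _ _ => 43) x)
  jc := slotFld2 nA 121 135 43556142965880123323311949751266331066367 7 17 25 255
    (fun x => Nat.rec (motive := fun _ => ℕ) 3 (fun _ _ => 0) x)
  dd := fldA nA 121 135 43556142965880123323311949751266331066367 0 7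
  dl := fldA nA 121 135 43556142965880123323311949751266331066367 3 7
  qj := fldA nA 121 135 43556142965880123323311949751266331066367 6 1
  mp := fldA nA 121 135 43556142965880123323311949751266331066367 7 7
  mt := fldA nA 121 135 43556142965880123323311949751266331066367 10 63
  tb := tbFld2 fA 442 37 137438953471 3 16 7
  rels1 := [[0, 1, 0, 1, 0, 1],
    [0, 2, 0, 2],
    [0, 3, 0, 3],
    [0, 4, 0, 4],
    [0, 5, 0, 5],
    [0, 6, 0, 6],
    [1, 2, 1, 2, 1, 2],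
    [1, 3, 1, 3],
    [1, 4, 1, 4],
    [1, 5, 1, 5],
    [1, 6, 1, 6],
    [2, 3, 2, 3, 2, 3],
    [2, 4, 2, 4],
    [2, 5, 2, 5],
    [2, 6, 2, 6],
    [3, 4, 3, 4, 3, 4],
    [3, 5, 3, 5],
    [3, 6, 3, 6],
    [4, 5, 4, 5, 4, 5],
    [4, 6, 4, 6],
    [5, 6, 5, 6, 5, 6]]
  subs := [[0],
    [1],
    [2],
    [3],
    [4],
    [5]]
  rx := [[0, 1, 0, 1, 0, 1],
    [0, 2, 0, 2],
    [0, 3, 0, 3],
    [0, 4, 0, 4],
    [0, 5, 0, 5],
    [0, 6, 0, 6],
    [1, 2, 1, 2, 1, 2],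
    [1, 3, 1, 3],
    [1, 4, 1, 4],
    [1, 5, 1, 5],
    [1, 6, 1, 6],
    [2, 3, 2, 3, 2, 3],
    [2, 4, 2, 4],
    [2, 5, 2, 5],
    [2, 6, 2, 6],
    [3, 4, 3, 4, 3, 4],
    [3, 5, 3, 5],
    [3, 6, 3, 6],
    [4, 5, 4, 5, 4, 5],
    [4, 6, 4, 6],
    [5, 6, 5, 6, 5, 6],
    [0, 7],
    [1, 8],
    [2, 9],
    [3, 10],
    [4, 11],
    [5, 12]]
  RB := 7
  tpl := fldA fA 442 37 137438953471 0 7
  tdep := fldA fA 442 37 137438953471 3 7
  ol := fldA fA 442 37 137438953471 6 1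
  oc := fldA fA 442 37 137438953471 7 7
  op := fldA fA 442 37 137438953471 10 7
  odep := fldA fA 442 37 137438953471 13 7
  orep := fun c => Tabs.nth 0 [0, 1] c

end Cfsg.Agent.Lib.Helper56.MYU6
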